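import Cfsg.Agent.H883.C7.NIface

/-!
# Vector valued bilinear forms vanishing on singular vectors
-/

set_option autoImplicit false
set_option linter.unusedSectionVars false

namespace Cfsg.Agent.H69.C7

open QuadraticMap hiding proj
open Cfsg.Agent.LieClassical.OrthCore Cfsg.Agent.LieClassical.OrthTrans
open Cfsg.Agent.H882.Ten Cfsg.Agent.LieClassical.OrthFinite Cfsg.Agent.H883.C7

variable {F : Type*} {V : Type*} {X : Type*} [Field F] [AddCommGroup V] [Module F V] [AddCommGroup X] [Module F X]
  {q : QuadraticForm F V}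

/-- Every vector of `⟨u, u'⟩^⊥` is a difference or sum of nonsingular vectors. -/
theorem exists_nonsing_add (h2 : (2 : F) ≠ 0) {y z : V} (hz : q z ≠ 0) (hy : q y = 0) :
    q (y + z) ≠ 0 ∨ q (y - z) ≠ 0 := by
  by_contra hcon
  push Not at hcon
  obtain ⟨h3, h4⟩ := hcon
  rw [Q_add, hy] at h3
  rw [sub_eq_add_neg, Q_add, hy, QuadraticMap.map_neg, polar_neg_right] at h4
  have : 2 * q z = 0 := by linear_combination h3 + h4
  exact mul_ne_zero h2 hz this

/-- A nonsingular vector orthogonal to a hyperbolic pair and a nonsingular vector. -/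
theorem exists_nonsing_perp3 (h2 : (2 : F) ≠ 0) (hq : Nondeg q) (hd : 4 ≤ Module.finrank F V) {u u' y : V}
    (hyp : Hyp q u u') (hy : polar q u y = 0) (hy' : polar q u' y = 0) (hqy : q y ≠ 0) :
    ∃ z, polar q u z = 0 ∧ polar q u' z = 0 ∧ polar q y z = 0 ∧ q z ≠ 0 := by
  obtain ⟨a, ha0, ha⟩ := exists_perp_ne (Q := q) ![u, u', y] (by omega)
  have a1 : polar q u a = 0 := ha 0
  have a2 : polar q u' a = 0 := ha 1
  have a3 : polar q y a = 0 := ha 2
  obtain ⟨c0, hc0⟩ := hq.exists_polar_eq ha0 1
  have hyy : polar q y y ≠ 0 := by rw [polar_self']; exact mul_ne_zero h2 hqy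
  set c1 := proj q u u' c0 with hc1
  have e1 : polar q u c1 = 0 := polar_proj_left hyp c0
  have e2 : polar q u' c1 = 0 := polar_proj_right hyp c0
  have e3 : polar q a c1 = 1 := by
    rw [hc1, polar_proj_of_perp a1 a2, hc0]
  set c := c1 - ((polar q y y)⁻¹ * polar q y c1) • y with hc
  have f1 : polar q u c = 0 := by rw [hc, polar_sub_right, polar_smul_right, e1, hy]; simp
  have f2 : polar q u' c = 0 := by rw [hc, polar_sub_right, polar_smul_right, e2, hy']; simp
  have f3 : polar q y c = 0 := by
    rw [hc, polar_sub_right, polar_smul_right, smul_eq_mul]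
    field_simp
    ring
  have f4 : polar q a c = 1 := by
    rw [hc, polar_sub_right, polar_smul_right, e3, polar_comm q a y, a3]; simp
  rcases exists_nonsing f4 with h | h | h
  · exact ⟨a, a1, a2, a3, h⟩
  · exact ⟨c, f1, f2, f3, h⟩
  · exact ⟨a + c, by rw [polar_add_right, a1, f1, add_zero], by rw [polar_add_right, a2, f2, add_zero],
      by rw [polar_add_right, a3, f3, add_zero], h⟩

/-- first step -/
theorem gam_step (h2 : (2 : F) ≠ 0) {u u' : V} (hyp : Hyp q u u') (γ : V →ₗ[F] V →ₗ[F] X)
    (hs : ∀ x y, γ x y = γ y x) (h0 : ∀ v, q v = 0 → γ v v = 0) {y : V} (hy : polar q u y = 0)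
    (hy' : polar q u' y = 0) : γ u' y = q y • γ u y ∧ γ y y = (2 * q y) • γ u u' := by
  have v1 : q (u' + y - q y • u) = 0 := sing_vec hyp.symm hy' hy
  have v2 : q (u' + (-y) - q (-y) • u) = 0 :=
    sing_vec hyp.symm (by rw [polar_neg_right, hy', neg_zero]) (by rw [polar_neg_right, hy, neg_zero])
  have k1 := h0 _ v1
  have k2 := h0 _ v2
  rw [QuadraticMap.map_neg] at k2
  simp only [map_add, map_sub, map_neg, map_smul, LinearMap.add_apply, LinearMap.sub_apply, LinearMap.neg_apply,
    LinearMap.smul_apply, h0 u hyp.left, h0 u' hyp.right, hs y u, hs y u', hs u' u] at k1 k2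
  have h4 : (4 : F) ≠ 0 := by
    have : (4 : F) = 2 * 2 := by norm_num
    rw [this]; exact mul_ne_zero h2 h2
  constructor
  · have : (4 : F) • (γ u' y - q y • γ u y) = 0 := by
      linear_combination (norm := module) k1 - k2
    exact sub_eq_zero.1 ((smul_eq_zero.1 this).resolve_left h4)
  · have : (2 : F) • (γ y y - (2 * q y) • γ u u') = 0 := by
      linear_combination (norm := module) k1 + k2
    exact sub_eq_zero.1 ((smul_eq_zero.1 this).resolve_left h2)

theorem gam_zero (h2 : (2 : F) ≠ 0) (hq : Nondeg q)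
    (hF : 4 ≤ Module.finrank F V ∨ ∃ c : F, c ≠ 0 ∧ c * c ≠ 1)
    {u u' : V} (hyp : Hyp q u u') (γ : V →ₗ[F] V →ₗ[F] X)
    (hs : ∀ x y, γ x y = γ y x) (h0 : ∀ v, q v = 0 → γ v v = 0) {y : V} (hy : polar q u y = 0)
    (hy' : polar q u' y = 0) : γ u' y = 0 := by
  rcases hF with hF | ⟨c, hc0, hc1⟩
  · have key : ∀ y, polar q u y = 0 → polar q u' y = 0 → q y ≠ 0 → γ u y = 0 := by
      intro y hy hy' hqy
      obtain ⟨z, hz, hz', hyz, hqz⟩ := exists_nonsing_perp3 h2 hq hF hyp hy hy' hqy
      have a1 := (gam_step h2 hyp γ hs h0 hy hy').1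
      have a2 := (gam_step h2 hyp γ hs h0 hz hz').1
      have a3 := (gam_step h2 hyp γ hs h0 (y := y + z) (by rw [polar_add_right, hy, hz, add_zero])
        (by rw [polar_add_right, hy', hz', add_zero])).1
      have a4 := (gam_step h2 hyp γ hs h0 (y := y - z) (by rw [polar_sub_right, hy, hz, sub_zero])
        (by rw [polar_sub_right, hy', hz', sub_zero])).1
      rw [Q_add, hyz, add_zero] at a3
      rw [sub_eq_add_neg, Q_add, polar_neg_right, hyz, neg_zero, add_zero, QuadraticMap.map_neg,
        ← sub_eq_add_neg] at a4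
      rw [map_add, map_add, a1, a2] at a3
      rw [map_sub, map_sub, a1, a2] at a4
      have : (2 * q z) • γ u y = 0 := by
        linear_combination (norm := module) -a3 - a4
      exact (smul_eq_zero.1 this).resolve_left (mul_ne_zero h2 hqz)
    rw [(gam_step h2 hyp γ hs h0 hy hy').1]
    by_cases hqy : q y = 0
    · rw [hqy, zero_smul]
    · rw [key y hy hy' hqy, smul_zero]
  · have a1 := (gam_step h2 hyp γ hs h0 hy hy').1
    have a2 := (gam_step h2 hyp γ hs h0 (y := c • y) (by rw [polar_smul_right, hy, smul_zero])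
      (by rw [polar_smul_right, hy', smul_zero])).1
    rw [QuadraticMap.map_smul, map_smul, map_smul, smul_eq_mul] at a2
    have : (c * (1 - c * c)) • γ u' y = 0 := by
      have e : (c * (1 - c * c)) • γ u' y = c • γ u' y - (c * c * c) • γ u' y := by module
      rw [e, a2]
      rw [a1]
      module
    refine (smul_eq_zero.1 this).resolve_left (mul_ne_zero hc0 ?_)
    intro h
    exact hc1 (sub_eq_zero.1 h).symm

theorem expand_hyp {u u' : V} (x : V) : x = polar q u' x • u + polar q u x • u' + proj q u u' x := by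
  rw [LieClassical.OrthTrans.proj]; module

/-- A symmetric vector valued form vanishing on singular vectors is a multiple of the polar form. -/
theorem gam_eq (h2 : (2 : F) ≠ 0) (hq : Nondeg q)
    (hF : 4 ≤ Module.finrank F V ∨ ∃ c : F, c ≠ 0 ∧ c * c ≠ 1)
    {u u' : V} (hyp : Hyp q u u') (γ : V →ₗ[F] V →ₗ[F] X)
    (hs : ∀ x y, γ x y = γ y x) (h0 : ∀ v, q v = 0 → γ v v = 0) (x y : V) : γ x y = polar q x y • γ u u' := by
  set x1 := proj q u u' x with hx1
  set y1 := proj q u u' y with hy1
  have p1 : polar q u x1 = 0 := polar_proj_left hyp x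
  have p2 : polar q u' x1 = 0 := polar_proj_right hyp x
  have p3 : polar q u y1 = 0 := polar_proj_left hyp y
  have p4 : polar q u' y1 = 0 := polar_proj_right hyp y
  have k1 := gam_zero h2 hq hF hyp γ hs h0 p1 p2
  have k2 := gam_zero h2 hq hF hyp γ hs h0 p3 p4
  have k3 := gam_zero h2 hq hF hyp.symm γ hs h0 p2 p1
  have k4 := gam_zero h2 hq hF hyp.symm γ hs h0 p4 p3
  have k5 : γ x1 y1 = polar q x1 y1 • γ u u' := by
    have a1 := (gam_step h2 hyp γ hs h0 p1 p2).2
    have a2 := (gam_step h2 hyp γ hs h0 p3 p4).2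
    have a3 := (gam_step h2 hyp γ hs h0 (y := x1 + y1) (by rw [polar_add_right, p1, p3, add_zero])
      (by rw [polar_add_right, p2, p4, add_zero])).2
    rw [Q_add, map_add, map_add, LinearMap.add_apply, LinearMap.add_apply, a1, a2, hs y1 x1] at a3
    have : (2 : F) • (γ x1 y1 - polar q x1 y1 • γ u u') = 0 := by
      linear_combination (norm := module) a3
    exact sub_eq_zero.1 ((smul_eq_zero.1 this).resolve_left h2)
  have ex := expand_hyp (q := q) (u := u) (u' := u') x
  have ey := expand_hyp (q := q) (u := u) (u' := u') y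
  rw [← hx1] at ex
  rw [← hy1] at ey
  have k6 : polar q x y = polar q u' x * polar q u y + polar q u x * polar q u' y + polar q x1 y1 := by
    conv_lhs => rw [ex, ey]
    simp only [polar_add_left, polar_add_right, polar_smul_left, polar_smul_right, smul_eq_mul, hyp.polar_left,
      hyp.polar_right, hyp.pair, hyp.pair', p1, p2, p3, p4, polar_comm q x1 u, polar_comm q x1 u']
    ring
  rw [k6]
  conv_lhs => rw [ex, ey]
  simp only [map_add, map_smul, LinearMap.add_apply, LinearMap.smul_apply, k1, k2, k3, k4, k5, hs x1 u, hs x1 u',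
    h0 u hyp.left, h0 u' hyp.right, hs u' u]
  module

/-- An alternating form with `β y u = 0` for all singular `u` and nonsingular `y ⊥ u` is zero. -/
theorem alt_zero (h2 : (2 : F) ≠ 0) (hq : Nondeg q) (hd : 3 ≤ Module.finrank F V)
    {u u' : V} (hyp : Hyp q u u') (β : V →ₗ[F] V →ₗ[F] X) (hs : ∀ x y, β x y = -β y x)
    (h0 : ∀ u y, q u = 0 → u ≠ 0 → polar q u y = 0 → q y ≠ 0 → β y u = 0) : β = 0 := by
  have hself : ∀ x, β x x = 0 := by
    intro x
    have h1 := hs x x
    have h3 : (2 : F) • β x x = 0 := by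
      linear_combination (norm := module) h1
    exact (smul_eq_zero.1 h3).resolve_left h2
  have key : ∀ u y, q u = 0 → u ≠ 0 → polar q u y = 0 → β y u = 0 := by
    intro u y hu hu0 hy
    by_cases hqy : q y = 0
    · obtain ⟨u', hyp⟩ := LieClassical.OrthTrans.exists_hyp hq hu hu0
      obtain ⟨z, hz1, hz2, hz3⟩ := exists_nonsing_perp hq hd hyp
      rcases exists_nonsing_add h2 hz3 hqy with h | h
      · have a1 := h0 u _ hu hu0 (by rw [polar_add_right, hy, hz1, add_zero]) h
        have a2 := h0 u z hu hu0 hz1 hz3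
        rw [map_add, LinearMap.add_apply, a2, add_zero] at a1
        exact a1
      · have a1 := h0 u _ hu hu0 (by rw [polar_sub_right, hy, hz1, sub_zero]) h
        have a2 := h0 u z hu hu0 hz1 hz3
        rw [map_sub, LinearMap.sub_apply, a2, sub_zero] at a1
        exact a1
    · exact h0 u y hu hu0 hy hqy
  have key2 : ∀ y y', polar q u y = 0 → polar q u' y = 0 → polar q u y' = 0 → polar q u' y' = 0 →
      β y' y = polar q y' y • β u u' := by
    intro y y' hy hy' hz hz'
    have v1 : q (u' + y - q y • u) = 0 := sing_vec hyp.symm hy' hy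
    have v0 : u' + y - q y • u ≠ 0 := by
      intro h
      have h1 := congrArg (polar q u) h
      rw [polar_sub_right, polar_add_right, polar_smul_right, hyp.pair, hy, hyp.polar_left, polar_zero_right] at h1
      simp at h1
    have v2 : polar q (u' + y - q y • u) (y' - polar q y' y • u) = 0 := by
      simp only [polar_add_left, polar_sub_left, polar_sub_right, polar_smul_left, polar_smul_right, smul_eq_mul,
        hyp.polar_left, hyp.pair', hz, hz', hy, polar_comm q y u, polar_comm q y y']
      ring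
    have h1 := key _ _ v1 v0 v2
    have b1 := key u' y' hyp.right hyp.right_ne hz'
    have b2 := key u y' hyp.left hyp.left_ne hz
    have b3 : β u y = 0 := by rw [hs, key u y hyp.left hyp.left_ne hy, neg_zero]
    simp only [map_add, map_sub, map_smul, LinearMap.sub_apply, LinearMap.smul_apply,
      b1, b2, b3, hself u] at h1
    linear_combination (norm := module) h1
  obtain ⟨z, hz1, hz2, hz3⟩ := exists_nonsing_perp hq hd hyp
  have huu : β u u' = 0 := by
    have h1 := key2 z z hz1 hz2 hz1 hz2
    rw [hself, polar_self'] at h1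
    exact (smul_eq_zero.1 h1.symm).resolve_left (mul_ne_zero h2 hz3)
  refine LinearMap.ext fun x => LinearMap.ext fun y => ?_
  set x1 := proj q u u' x with hx1
  set y1 := proj q u u' y with hy1
  have p1 : polar q u x1 = 0 := polar_proj_left hyp x
  have p2 : polar q u' x1 = 0 := polar_proj_right hyp x
  have p3 : polar q u y1 = 0 := polar_proj_left hyp y
  have p4 : polar q u' y1 = 0 := polar_proj_right hyp y
  have ex := expand_hyp (q := q) (u := u) (u' := u') x
  have ey := expand_hyp (q := q) (u := u) (u' := u') y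
  rw [← hx1] at ex
  rw [← hy1] at ey
  rw [ex, ey]
  have e1 : β u' u = 0 := by rw [hs, huu, neg_zero]
  have e2 : β x1 u = 0 := key _ _ hyp.left hyp.left_ne p1
  have e3 : β x1 u' = 0 := key _ _ hyp.right hyp.right_ne p2
  have e4 : β u y1 = 0 := by rw [hs, key _ _ hyp.left hyp.left_ne p3, neg_zero]
  have e5 : β u' y1 = 0 := by rw [hs, key _ _ hyp.right hyp.right_ne p4, neg_zero]
  have e6 : β x1 y1 = 0 := by rw [key2 _ _ p3 p4 p1 p2, huu, smul_zero]
  simp only [map_add, map_smul, LinearMap.add_apply, LinearMap.smul_apply, hself, huu, e1, e2, e3, e4, e5, e6,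
    LinearMap.zero_apply, smul_zero, add_zero]

end Cfsg.Agent.H69.C7
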