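import Cfsg.Agent.H69.C7.Step
import Cfsg.Agent.H883.C7.Cent

/-!
# Purification: an overgroup which is not thin contains `1 + c`, `c` a pure tensor of elementary operators
-/

set_option autoImplicit false
set_option linter.unusedSectionVars false

namespace Cfsg.Agent.H69.C7

open QuadraticMap hiding proj
open Cfsg.Agent.LieClassical.OrthCore Cfsg.Agent.LieClassical.OrthTrans
open Cfsg.Agent.H882.Ten Cfsg.Agent.LieClassical.OrthFinite Cfsg.Agent.H883.C7

universe v

variable {F : Type*} [Field F] {κ : Type*} [Fintype κ] [DecidableEq κ]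
  {q : QuadraticForm F (κ → F)}

/-- Every invariant non-zero additive group of operators contains a multiple of a pure tensor of elementary
operators. -/
theorem pure_of_inv [Finite F] (H : Hyp7 q) {u0 : κ → F} (hu0 : q u0 = 0) (hu0' : u0 ≠ 0) (n : ℕ) :
    ∀ (ι : Type v) [Fintype ι] [DecidableEq ι], Fintype.card ι = n →
    ∀ (Z : AddSubgroup (Module.End F ((ι → κ) → F))),
    (∀ (l : ι) (u z : κ → F) (hu : q u = 0) (hz : polar q u z = 0), ∀ T ∈ Z,
      cj (slE l (siegel q u z hu hz)) T ∈ Z) →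
    (4 ≤ Fintype.card κ → ∀ (l : ι) (y : κ → F) (hy : q y ≠ 0), (∃ u, u ≠ 0 ∧ q u = 0 ∧ polar q u y = 0) → ∀ T ∈ Z,
      cj (slE l (refl q y hy)) T ∈ Z) →
    ∀ T ∈ Z, T ≠ 0 → ∃ (r : F) (c : ι → Module.End F (κ → F)), r ≠ 0 ∧
      (∀ l, c l = 1 ∨ IsOm q (c l) ∨ IsNn q (c l)) ∧ r • op c ∈ Z := by
  induction n with
  | zero =>
    intro ι _ _ hι Z _ _ T hT hT0
    have : IsEmpty ι := Fintype.card_eq_zero_iff.1 hι
    have h1 : ∀ v : (ι → κ) → F, v = (v isEmptyElim) • (tp fun _ => u0) := by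
      intro v
      funext a
      rw [Pi.smul_apply, tp_apply, Finset.univ_eq_empty, Finset.prod_empty, smul_eq_mul, mul_one]
      congr 1
      exact Subsingleton.elim _ _
    obtain ⟨r, hr⟩ : ∃ r : F, T = r • 1 := by
      refine ⟨T (tp fun _ => u0) isEmptyElim, LinearMap.ext fun v => ?_⟩
      rw [LinearMap.smul_apply, Module.End.one_apply]
      conv_lhs => rw [h1 v, map_smul, h1 (T _), smul_smul]
      conv_rhs => rw [h1 v, smul_smul]
      rw [mul_comm]
    refine ⟨r, fun _ => 1, ?_, fun l => Or.inl rfl, ?_⟩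
    · rintro rfl
      rw [zero_smul] at hr
      exact hT0 hr
    · rw [op_one, ← hr]; exact hT
  | succ n ih =>
    intro ι _ _ hι Z hZ hR T hT hT0
    have hne : Nonempty ι := Fintype.card_pos_iff.1 (by omega)
    obtain ⟨l⟩ := hne
    obtain ⟨T1, c, hT1, hc, hmem⟩ := step H l Z (hZ l) (fun h4 => hR h4 l) hu0 hu0' hT hT0
    let Z' : AddSubgroup (Module.End F (({j // j ≠ l} → κ) → F)) := Z.comap (btA l c).toAddMonoidHom
    have hZ' : ∀ X, X ∈ Z' ↔ bt l X c ∈ Z := fun X => Iff.rfl
    obtain ⟨r, c', hr, hc', hm⟩ := ih {j // j ≠ l} (by rw [Fintype.card_subtype_compl, hι]; simp) Z'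
      (fun j u z hu hz X hX => by
        rw [hZ'] at hX ⊢
        rw [bt_cj]
        exact hZ j u z hu hz _ hX)
      (fun h4 j y hy hex X hX => by
        rw [hZ'] at hX ⊢
        rw [bt_cj]
        exact hR h4 j y hy hex _ hX) T1 hmem hT1
    refine ⟨r, ins l c' c, hr, fun j => ?_, ?_⟩
    · by_cases hj : j = l
      · rw [hj, ins_same]; exact hc
      · rw [ins_ne l _ _ hj]; exact hc' _
    · rw [hZ', ← btA_apply, map_smul, btA_apply, bt_op] at hm
      exact hm

/-- A space satisfying `Hyp7` contains a non-zero singular vector. -/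
theorem exists_sing [Finite F] (H : Hyp7 q) : ∃ u : κ → F, q u = 0 ∧ u ≠ 0 := by
  obtain ⟨u, hu, hu0, h⟩ := exists_sing_mem (Q := q) (⊤ : Submodule F (κ → F))
    (by rw [finrank_top, Module.finrank_fintype_fun_eq_card]; exact H.three)
  exact ⟨u, by assumption, by assumption⟩

/-- The claim in the form used elsewhere. -/
theorem exists_pure [Finite F] (H : Hyp7 q) {ι : Type v} [Fintype ι] [DecidableEq ι]
    {Z : AddSubgroup (Module.End F ((ι → κ) → F))}
    (hE : ∀ (l : ι) (u z : κ → F) (hu : q u = 0) (hz : polar q u z = 0), ∀ T ∈ Z,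
      cj (slE l (siegel q u z hu hz)) T ∈ Z)
    (hR : 4 ≤ Fintype.card κ → ∀ (l : ι) (y : κ → F) (hy : q y ≠ 0),
      (∃ u, u ≠ 0 ∧ q u = 0 ∧ polar q u y = 0) → ∀ T ∈ Z, cj (slE l (refl q y hy)) T ∈ Z)
    {T : Module.End F ((ι → κ) → F)} (hT : T ∈ Z) (h0 : T ≠ 0) :
    ∃ (r : F) (c : ι → Module.End F (κ → F)), r ≠ 0 ∧
      (∀ l, c l = 1 ∨ IsOm q (c l) ∨ IsNn q (c l)) ∧ r • op c ∈ Z := by
  obtain ⟨u, hu, hu0⟩ := exists_sing H
  exact pure_of_inv H hu hu0 _ ι rfl Z hE hR T hT h0

/-- The isometry group is transitive on the singular vectors. -/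
theorem exists_O_sing {V : Type*} [AddCommGroup V] [Module F V] {Q : QuadraticForm F V} (hQ : Nondeg Q)
    {u w : V} (hu : Q u = 0) (hu0 : u ≠ 0) (hw : Q w = 0) (hw0 : w ≠ 0) : ∃ e ∈ O Q, e u = w := by
  by_cases h : polar Q u w = 0
  · by_cases hpar : ∀ c : F, u ≠ c • (w - u)
    · obtain ⟨g, hg, hgu⟩ := exists_siegel_of_orth hQ hu hw h hpar
      exact ⟨g, E_le_O hg, hgu⟩
    · push Not at hpar
      obtain ⟨c, hc⟩ := hpar
      have h1 : (1 + c) • u = c • w := by
        rw [add_smul, one_smul]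
        nth_rewrite 1 [hc]
        module
      have hc0 : c ≠ 0 := by
        rintro rfl
        rw [zero_smul] at hc
        exact hu0 hc
      have hc1 : 1 + c ≠ 0 := by
        intro h0
        rw [h0, zero_smul] at h1
        exact (smul_ne_zero hc0 hw0) h1.symm
      have h3 : w = (c⁻¹ * (1 + c)) • u := by
        rw [← smul_smul, h1, smul_smul, inv_mul_cancel₀ hc0, one_smul]
      obtain ⟨u', hyp⟩ := LieClassical.OrthTrans.exists_hyp hQ hu hu0
      obtain ⟨h, r, hO, _, hh, _⟩ := exists_torus0 hyp (mul_ne_zero (inv_ne_zero hc0) hc1)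
      exact ⟨h, hO, by rw [hh, ← h3]⟩
  · have hv : Q (u - w) ≠ 0 := by
      rw [sub_eq_add_neg, Q_add, QuadraticMap.map_neg, polar_neg_right, hu, hw]
      simpa using h
    exact ⟨refl Q (u - w) hv, refl_mem_O hv, refl_sub_apply (by rw [hu, hw]) hv⟩

theorem refl_fix {V : Type*} [AddCommGroup V] [Module F V] {Q : QuadraticForm F V} {y w : V} (hy : Q y ≠ 0)
    (h : polar Q y w = 0) : refl Q y hy w = w := by
  rw [refl_apply, h, mul_zero, zero_smul, sub_zero]

variable {ι : Type v} [Fintype ι] [DecidableEq ι] {M : Subgroup (((ι → κ) → F) ≃ₗ[F] ((ι → κ) → F))}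

/-- Reflections in a slot act. -/
theorem inZ_refl (h2 : (2 : F) ≠ 0) (hq : Nondeg q) (hG : Good (QT q ι)) (hM : Over q M) {i : ι} {w : κ → F}
    (hw : q w = 0) (hw0 : w ≠ 0) {S : Module.End F (({j // j ≠ i} → κ) → F)} (hS : InZ (ten F κ i) q M w S)
    (l : {j // j ≠ i}) {y : κ → F} (hy : q y ≠ 0) {u : κ → F} (hu0 : u ≠ 0) (hu : q u = 0)
    (huy : polar q u y = 0) : InZ (ten F κ i) q M w (cj (slE l (refl q y hy)) S) := by
  obtain ⟨e, he, heu⟩ := exists_O_sing hq hu hu0 hw hw0
  have hy' : q (e y) ≠ 0 := by rw [he]; exact hy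
  have hwy : polar q (e y) w = 0 := by
    rw [← heu, polar_map he, polar_comm]; exact huy
  have hconj : refl q (e y) hy' = e * refl q y hy * e⁻¹ := (refl_conj he hy hy').symm
  set k := slE i (refl q (e y) hy') * slE (l : ι) (refl q y hy) with hk
  have hkM : k ∈ M := by
    refine hM.2 _ ?_ ?_
    · have h1 : k = slE i e * (slE i (refl q y hy) * slE (l : ι) (refl q y hy)) * (slE i e)⁻¹ := by
        rw [hk, hconj, map_mul, map_mul, map_inv, mul_assoc (slE i e), mul_assoc (slE i e), mul_assoc (slE i e),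
          mul_assoc (slE i (refl q y hy)), mul_assoc (slE i (refl q y hy))]
        congr 2
        rw [← map_inv]
        exact slE_comm (fun h => l.2 h.symm) _ _
      rw [h1]
      exact conj_mem_E (slE_mem_O h2 i he) (slE_mul_slE_mem_E h2 hG i l (refl_mem_O hy))
    · rw [hk, slE_eq, slE_eq, ← map_mul]
      exact opE_isMono _
  obtain ⟨g, hg, hgt⟩ := hS
  refine ⟨k * g * k⁻¹, M.mul_mem (M.mul_mem hkM hg) (M.inv_mem hkM), fun a z => ?_⟩
  have hki : k⁻¹ = slE (l : ι) (refl q y hy) * slE i (refl q (e y) hy') := by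
    rw [hk, mul_inv_rev, ← map_inv, ← map_inv, refl_inv, refl_inv]
  have h1 : k⁻¹ (ten F κ i a z) = ten F κ i (slE l (refl q y hy) a) (refl q (e y) hy' z) := by
    rw [hki, LinearEquiv.mul_apply, slE_ten, slE_sub_ten]
  have h3 : ∀ a z, k (ten F κ i a z) = ten F κ i (slE l (refl q y hy) a) (refl q (e y) hy' z) := by
    intro a z
    rw [hk, LinearEquiv.mul_apply, slE_sub_ten, slE_ten]
  rw [LinearEquiv.mul_apply, LinearEquiv.mul_apply, h1, hgt, map_add, map_smul, h3, h3, cj_apply, ← map_inv,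
    refl_inv, refl_fix hy' hwy]
  have e1 : slE l (refl q y hy) (slE l (refl q y hy) a) = a := by
    rw [← LinearEquiv.mul_apply, ← map_mul, refl_mul_self, map_one]; rfl
  have e2 : refl q (e y) hy' (refl q (e y) hy' z) = z := by
    rw [← LinearEquiv.mul_apply, refl_mul_self]; rfl
  have e3 : polar q w (refl q (e y) hy' z) = polar q w z := by
    conv_lhs => rw [← refl_fix hy' hwy]
    exact polar_map (refl_mem_O hy') _ _
  rw [e1, e2, e3]

/-- Not thin: a non-zero `S` with `1 + S ⊗ ω_w ∈ M`. -/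
theorem exists_inZ (h2 : (2 : F) ≠ 0) (hq : Nondeg q) (hM : Over q M) (hN : ¬ Thin q M) :
    ∃ (i : ι) (w : κ → F) (S : Module.End F (({j // j ≠ i} → κ) → F)), w ≠ 0 ∧ q w = 0 ∧ S ≠ 0 ∧
      InZ (ten F κ i) q M w S := by
  unfold Thin at hN
  push Not at hN
  obtain ⟨i, w, hw0, hw, g, hg, hfix, hg1⟩ := hN
  have S := tst (ι := ι) h2 hq i
  obtain ⟨w', hyp⟩ := LieClassical.OrthTrans.exists_hyp hq hw hw0
  have hgO := hM.le_O hg
  have hQ := nondeg_QT (ι := ι) h2 hq
  -- the image of `g - 1` is perpendicular to the fixed vectors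
  have himg : ∀ v v', (∀ a, polar (QT q ι) v' (ten F κ i a w) = 0) → polar (QT q ι) (g v - v) v' = 0 := by
    intro v v' hv'
    rw [polar_sub_left]
    conv_lhs => rw [← hfix v' hv']
    rw [polar_map hgO, hfix v' hv', sub_self]
  have hperp : ∀ a z, polar q w z = 0 → ∀ b, polar (QT q ι) (ten F κ i a z) (ten F κ i b w) = 0 := by
    intro a z hz b
    rw [S.pol, polar_comm q z w, hz, mul_zero]
  have hcz : ∀ v z, polar q w z = 0 → S.cw z (g v - v) = 0 := by
    intro v z hz
    rw [S.cw_eq_zero_iff]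
    intro a
    exact himg v _ (hperp a z hz)
  -- `g v - v = a ⊗ w`
  have hex : ∀ v, g v - v = ten F κ i (S.cw w' (g v - v)) w := by
    intro v
    have h1 := S.eq_t_of_perp (nondeg_QT h2 hq) hyp (hcz v)
    exact h1
  let S1 : Module.End F (({j // j ≠ i} → κ) → F) :=
    S.cw w' ∘ₗ ((g : ((ι → κ) → F) →ₗ[F] ((ι → κ) → F)) - LinearMap.id) ∘ₗ (ten F κ i).flip w'
  have hS1 : ∀ a, S1 a = S.cw w' (g (ten F κ i a w') - ten F κ i a w') := fun a => rfl
  have hgt : ∀ a z, g (ten F κ i a z) = ten F κ i a z + polar q w z • ten F κ i (S1 a) w := by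
    intro a z
    have e : z = polar q w z • w' + (z - polar q w z • w') := by abel
    have e1 : polar q w (z - polar q w z • w') = 0 := by
      rw [polar_sub_right, polar_smul_right, hyp.pair]; simp
    have e2 : g (ten F κ i a (z - polar q w z • w')) = ten F κ i a (z - polar q w z • w') :=
      hfix _ (hperp a _ e1)
    have e3 : g (ten F κ i a w') = ten F κ i a w' + ten F κ i (S1 a) w := by
      rw [hS1, ← hex]; abel
    conv_lhs => rw [e, map_add, map_add, e2, map_smul, map_smul, e3]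
    conv_rhs => rw [e, map_add]
    have e4 : polar q w (polar q w z • w' + (z - polar q w z • w')) = polar q w z := by rw [← e]
    rw [e4]
    simp only [map_smul]
    module
  refine ⟨i, w, S1, hw0, hw, ?_, g, hg, hgt⟩
  intro h
  apply hg1
  refine ext_t' S.ten fun a z => ?_
  rw [hgt, h, LinearMap.zero_apply, map_zero, LinearMap.zero_apply, smul_zero, add_zero]
  rfl

/-- **Purification.** -/
theorem purify [Finite F] (H : Hyp7 q) (ht : 2 ≤ Fintype.card ι) (hM : Over q M) (hN : ¬ Thin q M) :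
    ∃ (c : ι → Module.End F (κ → F)) (i j : ι), IsOm q (c i) ∧ IsNn q (c j) ∧
      (∀ l, c l = 1 ∨ IsOm q (c l) ∨ IsNn q (c l)) ∧ PX M (op c) := by
  have h2 := H.two
  have hq := H.nd
  have hG := H.good ht
  obtain ⟨i, w, S0, hw0, hw, hS0, hin⟩ := exists_inZ h2 hq hM hN
  have S := tst (ι := ι) h2 hq i
  let Z : AddSubgroup (Module.End F (({j // j ≠ i} → κ) → F)) :=
    AddSubgroup.ofSub {X | InZ (ten F κ i) q M w X} ⟨S0, hin⟩ (fun {X} hX {Y} hY => by
      rw [← sub_eq_add_neg]
      exact S.inZ_sub hw hX hY)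
  have hZ : ∀ X, X ∈ Z ↔ InZ (ten F κ i) q M w X := fun X => Iff.rfl
  obtain ⟨r, c, hr, hc, hm⟩ := pure_of_inv H hw hw0 _ {j // j ≠ i} rfl Z
    (fun l u z hu hz X hX => by
      rw [hZ] at hX ⊢
      refine S.inZ_cj hX ?_
      have := hM.siegel_mem h2 hG (l : ι) hu hz
      rwa [slE_sub] at this)
    (fun _ l y hy hex X hX => by
      rw [hZ] at hX ⊢
      obtain ⟨u, hu0, hu, huy⟩ := hex
      exact inZ_refl h2 hq hG hM hw hw0 hX l hy hu0 hu huy) S0 hin hS0
  rw [hZ] at hm
  -- some slot is skew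
  have hne : ∀ l, c l ≠ 0 := by
    intro l
    rcases hc l with h | ⟨u, hu0, hu, h⟩ | ⟨u, z, hu0, hu, hz, hqz, h⟩
    · rw [h]
      intro h0
      have := LinearMap.congr_fun h0 w
      exact hw0 this
    · rw [h]
      intro h0
      obtain ⟨u', hyp⟩ := LieClassical.OrthTrans.exists_hyp hq hu hu0
      have := LinearMap.congr_fun h0 u'
      rw [om_apply, hyp.pair, one_smul] at this
      exact hu0 this
    · rw [h]
      intro h0
      have := LinearMap.congr_fun h0 z
      rw [nn_apply, hz, zero_smul, zero_sub, polar_self', LinearMap.zero_apply, neg_eq_zero] at this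
      exact smul_ne_zero (mul_ne_zero h2 hqz) hu0 this
  have hopne : op c ≠ 0 := by
    have h1 : ∀ l, ∃ x, c l x ≠ 0 := by
      intro l
      by_contra hcon
      push Not at hcon
      exact hne l (LinearMap.ext hcon)
    choose x hx using h1
    intro h0
    have h3 := LinearMap.congr_fun h0 (tp x)
    rw [op_tp] at h3
    exact tp_ne_zero hx h3
  obtain ⟨j, hj⟩ : ∃ j, IsNn q (c j) := by
    by_contra hcon
    push Not at hcon
    have hsymm : ∀ l x y, polar q (c l x) y = polar q x (c l y) := by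
      intro l x y
      rcases hc l with h | ⟨u, hu0, hu, h⟩ | h
      · rw [h]; rfl
      · rw [h, om_adj]
      · exact absurd h (hcon l)
    have hS := S.inZ_skew hM.le_O hw hw0 hm
    apply hopne
    have hS2 : ∀ x y, polar (QT q {j // j ≠ i}) (op c x) y = polar (QT q {j // j ≠ i}) x (op c y) := by
      have : (polarBilin (QT q {j // j ≠ i})) ∘ₗ op c = (polarBilin (QT q {j // j ≠ i})).compl₂ (op c) := by
        refine tp_ext2 fun x y => ?_
        rw [LinearMap.comp_apply, LinearMap.compl₂_apply, polarBilin_apply_apply, polarBilin_apply_apply, op_tp,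
          op_tp, polar_tp h2, polar_tp h2]
        exact Finset.prod_congr rfl fun l _ => hsymm l _ _
      intro x y
      exact LinearMap.congr_fun (LinearMap.congr_fun this x) y
    refine LinearMap.ext fun x => nondeg_QT h2 hq _ fun y => ?_
    have h1 := hS x y
    rw [LinearMap.smul_apply, LinearMap.smul_apply, polar_smul_left, polar_smul_right, ← hS2, smul_eq_mul] at h1
    have h3 : (2 * r) * polar (QT q {j // j ≠ i}) (op c x) y = 0 := by linear_combination h1
    exact (mul_eq_zero.1 h3).resolve_left (mul_ne_zero h2 hr)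
  obtain ⟨u, z, hu0, hu, huz, hqz, hcj⟩ := hj
  have hrnn : r • c j = nn q u (r • z) := by
    rw [hcj]
    refine LinearMap.ext fun v => ?_
    rw [LinearMap.smul_apply, nn_apply, nn_apply, polar_smul_left, smul_eq_mul]
    module
  refine ⟨Function.update (ins i c (om q w)) j (r • c j), i, j, ?_, ?_, ?_, ?_⟩
  · rw [Function.update_of_ne (fun h => j.2 h.symm), ins_same]
    exact ⟨w, hw0, hw, rfl⟩
  · rw [Function.update_self, hrnn]
    refine ⟨u, r • z, hu0, hu, by rw [polar_smul_right, huz, smul_zero], ?_, rfl⟩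
    rw [QuadraticMap.map_smul, smul_eq_mul]
    exact mul_ne_zero (mul_ne_zero hr hr) hqz
  · intro l
    by_cases hl : l = j
    · rw [hl, Function.update_self, hrnn]
      refine Or.inr (Or.inr ⟨u, r • z, hu0, hu, by rw [polar_smul_right, huz, smul_zero], ?_, rfl⟩)
      rw [QuadraticMap.map_smul, smul_eq_mul]
      exact mul_ne_zero (mul_ne_zero hr hr) hqz
    · rw [Function.update_of_ne hl]
      by_cases hli : l = i
      · rw [hli, ins_same]
        exact Or.inr (Or.inl ⟨w, hw0, hw, rfl⟩)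
      · rw [ins_ne i _ _ hli]
        exact hc _
  · obtain ⟨g, hg, hgt⟩ := hm
    refine ⟨g, hg, ?_⟩
    rw [op_update_smul]
    have hupd : Function.update (ins i c (om q w)) (j : ι) (c j) = ins i c (om q w) := by
      have : c j = ins i c (om q w) j := (ins_sub i c _ j).symm
      conv_lhs => rw [this]
      exact Function.update_eq_self _ _
    rw [hupd, ← bt_op]
    have : (g : ((ι → κ) → F) →ₗ[F] ((ι → κ) → F)) = LinearMap.id + r • bt i (op c) (om q w) := by
      refine ext_t S.ten fun a z => ?_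
      rw [LinearEquiv.coe_coe, hgt, LinearMap.add_apply, LinearMap.smul_apply, LinearMap.smul_apply, bt_ten,
        om_apply, LinearMap.id_apply]
      simp only [map_smul, LinearMap.smul_apply]
      module
    intro v
    exact LinearMap.congr_fun this v

end Cfsg.Agent.H69.C7
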