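import Cfsg.Agent.H69.C7.Alt

/-!
# Operators on the tensor power seen from one slot
-/

set_option autoImplicit false
set_option linter.unusedSectionVars false

namespace Cfsg.Agent.H69.C7

open QuadraticMap hiding proj
open Cfsg.Agent.LieClassical.OrthCore Cfsg.Agent.LieClassical.OrthTrans
open Cfsg.Agent.H882.Ten Cfsg.Agent.LieClassical.OrthFinite Cfsg.Agent.H883.C7

variable {F : Type*} [Field F] {κ : Type*} [Fintype κ] [DecidableEq κ] {ι : Type*} [Fintype ι] [DecidableEq ι]
  {q : QuadraticForm F (κ → F)}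

/-- `X ⊗ f` with `f` in slot `i`. -/
noncomputable def bt (i : ι) (X : Module.End F (({j // j ≠ i} → κ) → F)) (f : Module.End F (κ → F)) :
    Module.End F ((ι → κ) → F) := (isTen F κ i).map (isTen F κ i) X f

theorem bt_ten (i : ι) (X : Module.End F (({j // j ≠ i} → κ) → F)) (f : Module.End F (κ → F))
    (a : ({j // j ≠ i} → κ) → F) (u : κ → F) : bt i X f (ten F κ i a u) = ten F κ i (X a) (f u) := by
  rw [bt, IsTensorProduct.map_eq]

/-- `bt` as an additive map in the first variable -/
noncomputable def btA (i : ι) (f : Module.End F (κ → F)) :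
    Module.End F (({j // j ≠ i} → κ) → F) →ₗ[F] Module.End F ((ι → κ) → F) where
  toFun X := bt i X f
  map_add' X Y := ext_t (isTen F κ i) fun a u => by
    rw [bt_ten, LinearMap.add_apply, LinearMap.add_apply, bt_ten, bt_ten, map_add, LinearMap.add_apply]
  map_smul' c X := ext_t (isTen F κ i) fun a u => by
    rw [RingHom.id_apply, bt_ten, LinearMap.smul_apply, LinearMap.smul_apply, bt_ten, map_smul, LinearMap.smul_apply]

theorem btA_apply (i : ι) (f : Module.End F (κ → F)) (X : Module.End F (({j // j ≠ i} → κ) → F)) :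
    btA i f X = bt i X f := rfl

theorem bt_op (i : ι) (c : {j // j ≠ i} → Module.End F (κ → F)) (f : Module.End F (κ → F)) :
    bt i (op c) f = op (ins i c f) := by
  refine ext_t (isTen F κ i) fun a u => ?_
  rw [bt_ten, op_ten, ins_same]
  congr 3
  exact congrArg op (funext fun j => (ins_sub i c f j).symm)

theorem slE_inv_ten (i : ι) (g : (κ → F) ≃ₗ[F] (κ → F)) (a : ({j // j ≠ i} → κ) → F) (u : κ → F) :
    (slE i g)⁻¹ (ten F κ i a u) = ten F κ i a (g⁻¹ u) := by rw [← map_inv, slE_ten]

theorem slE_sub_inv_ten (i : ι) (j : {j // j ≠ i}) (g : (κ → F) ≃ₗ[F] (κ → F)) (a : ({j // j ≠ i} → κ) → F)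
    (u : κ → F) : (slE (j : ι) g)⁻¹ (ten F κ i a u) = ten F κ i ((slE j g)⁻¹ a) u := by
  rw [← map_inv, ← map_inv, slE_sub_ten]

theorem bt_cj (i : ι) (j : {j // j ≠ i}) (g : (κ → F) ≃ₗ[F] (κ → F))
    (X : Module.End F (({j // j ≠ i} → κ) → F)) (f : Module.End F (κ → F)) :
    bt i (cj (slE j g) X) f = cj (slE (j : ι) g) (bt i X f) := by
  refine ext_t (isTen F κ i) fun a u => ?_
  rw [bt_ten, cj_apply, cj_apply, slE_sub_inv_ten, bt_ten, slE_sub_ten]

/-- The matrix coefficients of `T` with respect to slot `i`. -/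
noncomputable def tau (q : QuadraticForm F (κ → F)) (i : ι) (T : Module.End F ((ι → κ) → F)) :
    (κ → F) →ₗ[F] (κ → F) →ₗ[F] Module.End F (({j // j ≠ i} → κ) → F) :=
  LinearMap.mk₂ F (fun x y => cW (isTen F κ i) (polarBilin q x) ∘ₗ T ∘ₗ (ten F κ i).flip y)
    (fun x x' y => by
      refine LinearMap.ext fun a => ?_
      simp only [LinearMap.comp_apply, LinearMap.add_apply]
      generalize T ((ten F κ i).flip y a) = v
      have : cW (isTen F κ i) (polarBilin q (x + x')) =
          cW (isTen F κ i) (polarBilin q x) + cW (isTen F κ i) (polarBilin q x') :=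
        ext_t (isTen F κ i) fun b z => by
          rw [LinearMap.add_apply, cW_apply, cW_apply, cW_apply, map_add, LinearMap.add_apply, add_smul]
      rw [this, LinearMap.add_apply])
    (fun c x y => by
      refine LinearMap.ext fun a => ?_
      simp only [LinearMap.comp_apply, LinearMap.smul_apply]
      generalize T ((ten F κ i).flip y a) = v
      have : cW (isTen F κ i) (polarBilin q (c • x)) = c • cW (isTen F κ i) (polarBilin q x) :=
        ext_t (isTen F κ i) fun b z => by
          rw [LinearMap.smul_apply, cW_apply, cW_apply, map_smul, LinearMap.smul_apply, smul_eq_mul, smul_smul]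
      rw [this, LinearMap.smul_apply])
    (fun x y y' => by
      refine LinearMap.ext fun a => ?_
      simp only [LinearMap.comp_apply, LinearMap.add_apply, map_add])
    (fun c x y => by
      refine LinearMap.ext fun a => ?_
      simp only [LinearMap.comp_apply, LinearMap.smul_apply, map_smul])

theorem tau_apply (i : ι) (T : Module.End F ((ι → κ) → F)) (x y : κ → F) (a : ({j // j ≠ i} → κ) → F) :
    tau q i T x y a = cW (isTen F κ i) (polarBilin q x) (T (ten F κ i a y)) := rfl

theorem cW_ten (i : ι) (x : κ → F) (a : ({j // j ≠ i} → κ) → F) (y : κ → F) :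
    cW (isTen F κ i) (polarBilin q x) (ten F κ i a y) = polar q x y • a := by
  rw [cW_apply, polarBilin_apply_apply]

theorem tau_add (i : ι) (T T' : Module.End F ((ι → κ) → F)) (x y : κ → F) :
    tau q i (T + T') x y = tau q i T x y + tau q i T' x y := by
  refine LinearMap.ext fun a => ?_
  rw [LinearMap.add_apply, tau_apply, tau_apply, tau_apply, LinearMap.add_apply, map_add]

theorem tau_sub (i : ι) (T T' : Module.End F ((ι → κ) → F)) (x y : κ → F) :
    tau q i (T - T') x y = tau q i T x y - tau q i T' x y := by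
  refine LinearMap.ext fun a => ?_
  rw [LinearMap.sub_apply, tau_apply, tau_apply, tau_apply, LinearMap.sub_apply, map_sub]

theorem tau_smul (i : ι) (c : F) (T : Module.End F ((ι → κ) → F)) (x y : κ → F) :
    tau q i (c • T) x y = c • tau q i T x y := by
  refine LinearMap.ext fun a => ?_
  rw [LinearMap.smul_apply, tau_apply, tau_apply, LinearMap.smul_apply, map_smul]

theorem tau_bt (i : ι) (X : Module.End F (({j // j ≠ i} → κ) → F)) (f : Module.End F (κ → F)) (x y : κ → F) :
    tau q i (bt i X f) x y = polar q x (f y) • X := by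
  refine LinearMap.ext fun a => ?_
  rw [tau_apply, bt_ten, cW_ten, LinearMap.smul_apply]

theorem tau_mul_sl (i : ι) (T : Module.End F ((ι → κ) → F)) (f : Module.End F (κ → F)) (x y : κ → F) :
    tau q i (T * sl i f) x y = tau q i T x (f y) := by
  refine LinearMap.ext fun a => ?_
  rw [tau_apply, tau_apply, Module.End.mul_apply, sl_ten]

/-- `f'` adjoint to `f` -/
theorem tau_sl_mul (i : ι) (T : Module.End F ((ι → κ) → F)) {f f' : Module.End F (κ → F)}
    (h : ∀ x y, polar q x (f y) = polar q (f' x) y) (x y : κ → F) :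
    tau q i (sl i f * T) x y = tau q i T (f' x) y := by
  refine LinearMap.ext fun a => ?_
  rw [tau_apply, tau_apply, Module.End.mul_apply]
  generalize T (ten F κ i a y) = v
  have : cW (isTen F κ i) (polarBilin q x) ∘ₗ sl i f = cW (isTen F κ i) (polarBilin q (f' x)) :=
    ext_t (isTen F κ i) fun b z => by
      rw [LinearMap.comp_apply, sl_ten, cW_ten, cW_ten, h]
  exact LinearMap.congr_fun this v

theorem tau_cj (i : ι) (T : Module.End F ((ι → κ) → F)) {g : (κ → F) ≃ₗ[F] (κ → F)} (hg : g ∈ O q)
    (x y : κ → F) : tau q i (cj (slE i g) T) x y = tau q i T (g⁻¹ x) (g⁻¹ y) := by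
  refine LinearMap.ext fun a => ?_
  rw [tau_apply, tau_apply, cj_apply, slE_inv_ten]
  generalize T (ten F κ i a (g⁻¹ y)) = v
  have : cW (isTen F κ i) (polarBilin q x) ∘ₗ ((slE i g : ((ι → κ) → F) ≃ₗ[F] ((ι → κ) → F)) :
      Module.End F ((ι → κ) → F)) = cW (isTen F κ i) (polarBilin q (g⁻¹ x)) :=
    ext_t (isTen F κ i) fun b z => by
      rw [LinearMap.comp_apply, LinearEquiv.coe_coe, slE_ten, cW_ten, cW_ten, ← polar_map hg (g⁻¹ x) z]
      have : g (g⁻¹ x) = x := LinearEquiv.apply_symm_apply g x
      rw [this]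
  exact LinearMap.congr_fun this v

theorem ext_tau (h2 : (2 : F) ≠ 0) (hq : Nondeg q) (i : ι) {T T' : Module.End F ((ι → κ) → F)}
    (h : ∀ x y, tau q i T x y = tau q i T' x y) : T = T' := by
  have S := tst (ι := ι) h2 hq i
  refine ext_t (isTen F κ i) fun a y => ?_
  rw [← sub_eq_zero]
  have h1 : ∀ x, S.cw x (T (ten F κ i a y) - T' (ten F κ i a y)) = 0 := by
    intro x
    have h3 := LinearMap.congr_fun (h x y) a
    rw [map_sub, sub_eq_zero]
    exact h3
  refine nondeg_QT h2 hq _ fun v => ?_
  induction v using (isTen F κ i).inductionOn with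
  | zero => exact polar_zero_right _ _
  | tmul b z => rw [S.polar_cw, h1, polar_zero_left]
  | add x y hx hy => rw [polar_add_right, hx, hy, add_zero]

end Cfsg.Agent.H69.C7
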