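import Cfsg.Agent.H69.C7.Slot
import Cfsg.Agent.H734.C7.OpA

/-!
# One slot of a non-zero operator can be made pure
-/

set_option autoImplicit false
set_option linter.unusedSectionVars false

namespace Cfsg.Agent.H69.C7

open QuadraticMap hiding proj
open Cfsg.Agent.LieClassical.OrthCore Cfsg.Agent.LieClassical.OrthTrans
open Cfsg.Agent.H882.Ten Cfsg.Agent.LieClassical.OrthFinite Cfsg.Agent.H883.C7

variable {F : Type*} [Field F] {κ : Type*} [Fintype κ] [DecidableEq κ] {ι : Type*} [Fintype ι] [DecidableEq ι]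
  {q : QuadraticForm F (κ → F)}

theorem hyp7_alt [Finite F] (H : Hyp7 q) : 4 ≤ Module.finrank F (κ → F) ∨ ∃ c : F, c ≠ 0 ∧ c * c ≠ 1 := by
  rw [Module.finrank_fintype_fun_eq_card]
  rcases Nat.lt_or_ge 3 (Fintype.card κ) with h | h
  · exact Or.inl h
  · exact Or.inr (exists_sq_ne (H.five (le_antisymm h H.three)))

theorem om_adj (q : QuadraticForm F (κ → F)) (u x y : κ → F) :
    polar q x (om q u y) = polar q (om q u x) y := by
  rw [om_apply, om_apply, polar_smul_right, polar_smul_left, smul_eq_mul, smul_eq_mul, polar_comm q x u,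
    mul_comm]

theorem nn_adj (q : QuadraticForm F (κ → F)) (u z x y : κ → F) :
    polar q x (nn q u z y) = polar q ((-nn q u z) x) y := by
  rw [LinearMap.neg_apply, nn_apply, nn_apply, polar_sub_right, polar_smul_right, polar_smul_right, polar_neg_left,
    polar_sub_left, polar_smul_left, polar_smul_left, polar_comm q x z, polar_comm q x u]
  simp only [smul_eq_mul]
  ring

/-- `ω T ω = T_(u,u) ⊗ ω` -/
theorem om_mul_mul_om (h2 : (2 : F) ≠ 0) (hq : Nondeg q) (i : ι) (T : Module.End F ((ι → κ) → F)) (u : κ → F) :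
    sl i (om q u) * T * sl i (om q u) = bt i (tau q i T u u) (om q u) := by
  refine ext_tau h2 hq i fun x y => ?_
  rw [tau_bt, tau_mul_sl, tau_sl_mul i T (om_adj q u), om_apply, om_apply, polar_smul_right]
  simp only [map_smul, LinearMap.smul_apply, smul_eq_mul]
  rw [polar_comm q x u]
  module

theorem tau_T1 (i : ι) (T : Module.End F ((ι → κ) → F)) (u y a b : κ → F) :
    tau q i ((2 : F) • (sl i (nn q u y) * T * sl i (nn q u y) + q y • (sl i (om q u) * T + T * sl i (om q u))))
      a b = (2 : F) • (-tau q i T (nn q u y a) (nn q u y b) +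
        q y • (tau q i T (om q u a) b + tau q i T a (om q u b))) := by
  rw [tau_smul, tau_add, tau_smul, tau_add, tau_mul_sl, tau_mul_sl, tau_sl_mul i T (om_adj q u),
    tau_sl_mul i T (nn_adj q u y)]
  rw [LinearMap.neg_apply, map_neg, LinearMap.neg_apply]

/-- A hyperbolic partner orthogonal to a nonsingular vector. -/
theorem exists_partner_perp (h2 : (2 : F) ≠ 0) {V : Type*} [AddCommGroup V] [Module F V] {Q : QuadraticForm F V}
    (hQ : Nondeg Q) {u y : V} (hu : Q u = 0) (hu0 : u ≠ 0) (huy : polar Q u y = 0) (hy : Q y ≠ 0) :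
    ∃ u', Hyp Q u u' ∧ polar Q u' y = 0 := by
  obtain ⟨u1, hyp⟩ := LieClassical.OrthTrans.exists_hyp hQ hu hu0
  have hyy : polar Q y y ≠ 0 := by rw [polar_self']; exact mul_ne_zero h2 hy
  set v := u1 - ((polar Q y y)⁻¹ * polar Q y u1) • y with hv
  have h1 : polar Q u v = 1 := by
    rw [hv, polar_sub_right, polar_smul_right, hyp.pair, huy]; simp
  have h3 : polar Q y v = 0 := by
    rw [hv, polar_sub_right, polar_smul_right, smul_eq_mul]
    field_simp
    ring
  refine ⟨v + (-Q v) • u, ⟨hu, ?_, ?_⟩, ?_⟩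
  · rw [Q_add, QuadraticMap.map_smul, hu, polar_smul_right, polar_comm Q v u, h1]
    simp
  · rw [polar_add_right, polar_smul_right, polar_self_of_sing hu, h1]
    simp
  · rw [polar_add_left, polar_smul_left, polar_comm Q v y, h3, huy]
    simp

/-- **One slot.** -/
theorem step [Finite F] (H : Hyp7 q) (l : ι) (Z : AddSubgroup (Module.End F ((ι → κ) → F)))
    (hZ : ∀ (u z : κ → F) (hu : q u = 0) (hz : polar q u z = 0), ∀ T ∈ Z, cj (slE l (siegel q u z hu hz)) T ∈ Z)
    (hR : 4 ≤ Fintype.card κ → ∀ (y : κ → F) (hy : q y ≠ 0), (∃ u, u ≠ 0 ∧ q u = 0 ∧ polar q u y = 0) → ∀ T ∈ Z,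
      cj (slE l (refl q y hy)) T ∈ Z) {u0 : κ → F} (hu0 : q u0 = 0) (hu0' : u0 ≠ 0)
    {T : Module.End F ((ι → κ) → F)} (hT : T ∈ Z) (hT0 : T ≠ 0) :
    ∃ (T1 : Module.End F (({j // j ≠ l} → κ) → F)) (c : Module.End F (κ → F)), T1 ≠ 0 ∧
      (c = 1 ∨ IsOm q c ∨ IsNn q c) ∧ bt l T1 c ∈ Z := by
  have h2 := H.two
  have hq := H.nd
  have hd : 3 ≤ Module.finrank F (κ → F) := by
    rw [Module.finrank_fintype_fun_eq_card]; exact H.three
  by_cases hsing : ∃ u, u ≠ 0 ∧ q u = 0 ∧ tau q l T u u ≠ 0
  · obtain ⟨u, hu0, hu, hne⟩ := hsing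
    obtain ⟨r, hr, hA⟩ := H734.C7.opA H hu hu0 (ι := ι)
    have h1 := hA l Z (fun y hy T hT => hZ u y hu hy T hT) T hT
    rw [om_mul_mul_om h2 hq, ← btA_apply, ← map_smul, btA_apply] at h1
    exact ⟨_, om q u, smul_ne_zero hr hne, Or.inr (Or.inl ⟨u, hu0, hu, rfl⟩), h1⟩
  push Not at hsing
  obtain ⟨u0', hyp0⟩ := LieClassical.OrthTrans.exists_hyp hq hu0 hu0'
  set γ : (κ → F) →ₗ[F] (κ → F) →ₗ[F] Module.End F (({j // j ≠ l} → κ) → F) := tau q l T + (tau q l T).flip with hγ
  have hγa : ∀ x y, γ x y = tau q l T x y + tau q l T y x := fun x y => rfl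
  have hγs : ∀ v, q v = 0 → γ v v = 0 := by
    intro v hv
    by_cases hv0 : v = 0
    · rw [hv0, map_zero]
    · rw [hγa, hsing v hv0 hv, add_zero]
  have hγe := gam_eq h2 hq (hyp7_alt H) hyp0 γ (fun x y => by rw [hγa, hγa, add_comm]) hγs
  set T0 := (2 : F)⁻¹ • γ u0 u0' with hT0'
  -- the alternating part
  set β : (κ → F) →ₗ[F] (κ → F) →ₗ[F] Module.End F (({j // j ≠ l} → κ) → F) :=
    tau q l (T - bt l T0 1) with hβ
  have hβa : ∀ x y, β x y = tau q l T x y - polar q x y • T0 := by
    intro x y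
    rw [hβ, tau_sub, tau_bt, Module.End.one_apply]
  have hβs : ∀ x y, β x y = -β y x := by
    intro x y
    have h1 := hγe x y
    rw [hγa] at h1
    have h3 : γ u0 u0' = (2 : F) • T0 := by
      rw [hT0', smul_smul, mul_inv_cancel₀ h2, one_smul]
    rw [h3] at h1
    rw [hβa, hβa, polar_comm q y x]
    linear_combination (norm := module) h1
  by_cases hβ0 : β = 0
  · have hTe : T = bt l T0 1 := by
      refine ext_tau h2 hq l fun x y => ?_
      have h1 := LinearMap.congr_fun (LinearMap.congr_fun hβ0 x) y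
      rw [hβ, tau_sub] at h1
      exact sub_eq_zero.1 h1
    refine ⟨T0, 1, ?_, Or.inl rfl, by rw [← hTe]; exact hT⟩
    intro h
    rw [h, ← btA_apply, map_zero] at hTe
    exact hT0 hTe
  · obtain ⟨u, y, hu, hun, huy, hqy, hne⟩ : ∃ u y, q u = 0 ∧ u ≠ 0 ∧ polar q u y = 0 ∧ q y ≠ 0 ∧ β y u ≠ 0 := by
      by_contra hcon
      push Not at hcon
      exact hβ0 (alt_zero h2 hq hd hyp0 β hβs hcon)
    have hyu : polar q y u = 0 := by rw [polar_comm]; exact huy
    have huu : polar q u u = 0 := polar_self_of_sing hu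
    have hyy : polar q y y = 2 * q y := polar_self' y
    have h0 : sl l (om q u) * T * sl l (om q u) = 0 := by
      rw [om_mul_mul_om h2 hq, hsing u hun hu, ← btA_apply, map_zero]
    have h1 := H734.C7.opB hu huy l Z (fun y hy T hT => hZ u y hu hy T hT) hT h0
    set T1 := (2 : F) • (sl l (nn q u y) * T * sl l (nn q u y) + q y • (sl l (om q u) * T + T * sl l (om q u)))
      with hT1
    have hτ : ∀ x y, tau q l T x y = β x y + polar q x y • T0 := by
      intro x y; rw [hβa]; abel
    have hself : ∀ x, β x x = 0 := by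
      intro x
      have h1 := hβs x x
      have h3 : (2 : F) • β x x = 0 := by
        linear_combination (norm := module) h1
      exact (smul_eq_zero.1 h3).resolve_left h2
    have hT1τ : ∀ a b, tau q l T1 a b = (2 : F) • (polar q u a • (polar q y b • β y u - q y • β b u) -
        polar q u b • (polar q y a • β y u - q y • β a u)) := by
      intro a b
      rw [hT1, tau_T1]
      simp only [hτ, nn_apply, om_apply, map_sub, map_smul, LinearMap.sub_apply, LinearMap.smul_apply, hself,
        polar_smul_right, huu, hyy, hyu, huy, hβs u y, hβs u b, polar_comm q a u, smul_eq_mul]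
      module
    have hi : (q y)⁻¹ * q y = 1 := inv_mul_cancel₀ hqy
    rcases Nat.lt_or_ge 3 (Fintype.card κ) with h4 | h4
    · have h3 := hR h4 y hqy ⟨u, hun, hu, huy⟩ T1 h1
      have h4 := Z.sub_mem h1 h3
      have hrefl : ∀ x, (refl q y hqy)⁻¹ x = x - ((q y)⁻¹ * polar q y x) • y := by
        intro x
        rw [refl_inv, refl_apply]
      have he : T1 - cj (slE l (refl q y hqy)) T1 = bt l ((-(2 : F)) • β y u) (nn q u y) := by
        refine ext_tau h2 hq l fun a b => ?_
        rw [tau_sub, tau_cj l T1 (refl_mem_O hqy), tau_bt, hT1τ, hT1τ, hrefl, hrefl, nn_apply]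
        simp only [map_sub, map_smul, LinearMap.sub_apply, LinearMap.smul_apply, polar_sub_right, polar_smul_right,
          huy, hyy, smul_eq_mul, polar_comm q a u, polar_comm q a y]
        generalize (q y)⁻¹ = s at hi
        have hi' : (s * q y) • β y u = β y u := by rw [hi, one_smul]
        linear_combination (norm := module) (2 * (polar q u a * polar q y b - polar q u b * polar q y a)) • hi'
      rw [he] at h4
      exact ⟨_, _, smul_ne_zero (neg_ne_zero.2 h2) hne, Or.inr (Or.inr ⟨u, y, hun, hu, huy, hqy, rfl⟩), h4⟩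
    · have hk : Module.finrank F (κ → F) = 3 := by
        rw [Module.finrank_fintype_fun_eq_card]
        exact le_antisymm h4 H.three
      obtain ⟨u', hyp, hu'y⟩ := exists_partner_perp h2 hq hu hun huy hqy
      have hyy0 : polar q y y ≠ 0 := by rw [hyy]; exact mul_ne_zero h2 hqy
      have hlam : ∀ b, (2 * q y) • β b u = (2 * q y * polar q u b) • β u' u + polar q y b • β y u := by
        intro b
        have h5 := expand3 hk hyp huy hu'y hyy0 b
        conv_lhs => rw [h5]
        simp only [map_add, map_smul, LinearMap.add_apply, LinearMap.smul_apply, hself, hyy]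
        have h6 : (2 * q y)⁻¹ * (2 * q y) = 1 := inv_mul_cancel₀ (mul_ne_zero h2 hqy)
        generalize (2 * q y)⁻¹ = s at h6
        have h7 : (s * (2 * q y)) • β y u = β y u := by rw [h6, one_smul]
        linear_combination (norm := module) (polar q y b) • h7
      have he : T1 = bt l ((-(1 : F)) • β y u) (nn q u y) := by
        refine ext_tau h2 hq l fun a b => ?_
        rw [tau_bt, hT1τ, nn_apply]
        simp only [polar_sub_right, polar_smul_right, smul_eq_mul, polar_comm q a u, polar_comm q a y]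
        linear_combination (norm := module) (-(polar q u a)) • hlam b + (polar q u b) • hlam a
      rw [he] at h1
      exact ⟨_, _, smul_ne_zero (neg_ne_zero.2 one_ne_zero) hne, Or.inr (Or.inr ⟨u, y, hun, hu, huy, hqy, rfl⟩), h1⟩

end Cfsg.Agent.H69.C7
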